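import Cfsg.Agent.Lib.Helper90.Sp.Defs2
import Cfsg.Agent.Lib.Helper13.Symp
import Cfsg.Agent.Lib.Helper95.Sp.Y
import Cfsg.Agent.Lib.Helper5.SpCenter

set_option autoImplicit false
set_option linter.unusedSectionVars false
set_option linter.unusedVariables false

/-! # Symplectic rows, piece E1c: `Sp_2m(F)` normalises no proper field extension subalgebra -/

namespace Cfsg.Agent.Lib.Helper47.Sp

open Cfsg Cfsg.Geo Matrix Cfsg.Agent.Lib.Helper13.Asch Cfsg.Agent.Lib.Helper90.Sp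
open scoped Kronecker MatrixGroups

variable {ι : Type} [Fintype ι] [DecidableEq ι] {F : Type*} [Field F]

/-- symplectic transvections as elements of `spGL` -/
theorem spGL_tv_exists (m : ℕ) (v : Fin m ⊕ Fin m → F) (c : F) :
    ∃ g ∈ spGL m F, ∀ x, (g : Matrix (Fin m ⊕ Fin m) (Fin m ⊕ Fin m) F) *ᵥ x =
      x + (c * sympForm m F x v) • v := by
  have hmul : ∀ c : F, sympTransvection m v c * sympTransvection m v (-c) = 1 := by
    intro c
    apply Matrix.toLin'.injective
    apply LinearMap.ext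
    intro x
    rw [Matrix.toLin'_apply, ← Matrix.mulVec_mulVec, Cfsg.Agent.Lib.Helper13.sympTransvection_mulVec,
      Cfsg.Agent.Lib.Helper13.sympTransvection_mulVec, Matrix.toLin'_one, LinearMap.id_apply,
      Cfsg.Agent.Lib.Helper13.sympForm_add_left, Cfsg.Agent.Lib.Helper13.sympForm_smul_left,
      Cfsg.Agent.Lib.Helper13.sympForm_self, mul_zero, add_zero, add_assoc, ← add_smul]
    rw [show -c * sympForm m F x v + c * sympForm m F x v = 0 by ring, zero_smul, add_zero]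
  refine ⟨⟨sympTransvection m v c, sympTransvection m v (-c), hmul c, ?_⟩, ?_, fun x =>
    Cfsg.Agent.Lib.Helper13.sympTransvection_mulVec v c x⟩
  · have := hmul (-c)
    rwa [neg_neg] at this
  · exact (Cfsg.Agent.Lib.Helper13.mem_symplecticGroup_iff_preserves _).1
      (Cfsg.Agent.Lib.Helper13.sympTransvection_mem v c)

/-- E1c -/
theorem sp_not_le_field {m : ℕ} (hm : 2 ≤ m) {r : ℕ} (hr : r.Prime)
    (K : Subalgebra F (Matrix (Fin m ⊕ Fin m) (Fin m ⊕ Fin m) F)) (hK : IsFieldSubalgebra r K) :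
    ¬ spGL m F ≤ subalgebraNormalizer K := by
  intro hle
  have hS := Cfsg.Agent.Lib.Helper95.Sp.sympForm_isSymplectic (F := F) m
  have hscal : ∀ k ∈ K, ∃ a : F, k = Matrix.scalar _ a := by
    intro k hk
    apply Cfsg.Agent.Lib.Helper5.matrix_eq_scalar_of_forall_mulVec
    intro v
    by_cases hv : v = 0
    · exact ⟨0, by rw [hv, Matrix.mulVec_zero, smul_zero]⟩
    obtain ⟨g, hg, hgx⟩ := spGL_tv_exists m v (1 : F)
    set k' := (g : Matrix (Fin m ⊕ Fin m) (Fin m ⊕ Fin m) F) * k *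
      ((g⁻¹ : GL (Fin m ⊕ Fin m) F) : Matrix (Fin m ⊕ Fin m) (Fin m ⊕ Fin m) F) with hk'
    have hk'K : k' ∈ K := ((hle hg) k).1 hk
    have h2 : ((g⁻¹ : GL (Fin m ⊕ Fin m) F) : Matrix (Fin m ⊕ Fin m) (Fin m ⊕ Fin m) F) *
        (g : Matrix (Fin m ⊕ Fin m) (Fin m ⊕ Fin m) F) = 1 := by
      rw [← Units.val_mul, inv_mul_cancel, Units.val_one]
    have hrel : k' * (g : Matrix (Fin m ⊕ Fin m) (Fin m ⊕ Fin m) F) =
        (g : Matrix (Fin m ⊕ Fin m) (Fin m ⊕ Fin m) F) * k := by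
      rw [hk', mul_assoc, h2, mul_one]
    -- `(k' - k) (g x) = f(kx,v) v - f(x,v) kv`
    have hd : ∀ x, (k' - k) *ᵥ ((g : Matrix (Fin m ⊕ Fin m) (Fin m ⊕ Fin m) F) *ᵥ x) =
        sympForm m F (k *ᵥ x) v • v - sympForm m F x v • (k *ᵥ v) := by
      intro x
      rw [Matrix.sub_mulVec, Matrix.mulVec_mulVec, hrel, ← Matrix.mulVec_mulVec, hgx, hgx,
        Matrix.mulVec_add, Matrix.mulVec_smul, one_mul, one_mul]
      abel
    have hkk : k' = k := by
      by_contra hne'
      have hd0 : k' - k ≠ 0 := fun h => hne' (sub_eq_zero.1 h)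
      obtain ⟨y, hy, hdy⟩ := hK.inv (k' - k) (K.sub_mem hk'K hk) hd0
      have hyd : y * (k' - k) = 1 := by rw [hK.comm y hy _ (K.sub_mem hk'K hk)]; exact hdy
      let L1 : (Fin m ⊕ Fin m → F) →ₗ[F] F :=
        { toFun := fun x => sympForm m F x v
          map_add' := fun a b => hS.bilinear.add_left a b v
          map_smul' := fun c a => hS.bilinear.smul_left c a v }
      let L : (Fin m ⊕ Fin m → F) →ₗ[F] F × F := L1.prod (L1.comp (Matrix.toLin' k))
      have hker : LinearMap.ker L ≠ ⊥ := by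
        apply LinearMap.ker_ne_bot_of_finrank_lt
        rw [Module.finrank_prod, Module.finrank_self, Module.finrank_fintype_fun_eq_card]
        simp only [Fintype.card_sum, Fintype.card_fin]
        omega
      obtain ⟨x, hxL, hx0⟩ := Submodule.exists_mem_ne_zero_of_ne_bot hker
      have hxL' : L x = 0 := hxL
      have hx1 : sympForm m F x v = 0 := congrArg Prod.fst hxL'
      have hx2 : sympForm m F (k *ᵥ x) v = 0 := by
        have := congrArg Prod.snd hxL'
        simpa [L, L1] using this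
      have h3 := hd x
      rw [hx1, hx2, zero_smul, zero_smul, sub_zero] at h3
      have h4 : (g : Matrix (Fin m ⊕ Fin m) (Fin m ⊕ Fin m) F) *ᵥ x = 0 := by
        have : (y * (k' - k)) *ᵥ ((g : Matrix (Fin m ⊕ Fin m) (Fin m ⊕ Fin m) F) *ᵥ x) =
            (g : Matrix (Fin m ⊕ Fin m) (Fin m ⊕ Fin m) F) *ᵥ x := by
          rw [hyd, Matrix.one_mulVec]
        rw [← this, ← Matrix.mulVec_mulVec, h3, Matrix.mulVec_zero]
      apply hx0
      rw [hgx, hx1, mul_zero, zero_smul, add_zero] at h4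
      exact h4
    obtain ⟨x, hx⟩ := (hS.nondegenerate v hv).1
    have h5 := hd x
    rw [hkk, sub_self, Matrix.zero_mulVec] at h5
    refine ⟨(sympForm m F x v)⁻¹ * sympForm m F (k *ᵥ x) v, ?_⟩
    have h6 : sympForm m F x v • (k *ᵥ v) = sympForm m F (k *ᵥ x) v • v := (sub_eq_zero.1 h5.symm).symm
    rw [mul_smul, ← h6, smul_smul, inv_mul_cancel₀ hx, one_smul]
  have hbot : K = ⊥ := by
    rw [eq_bot_iff]
    intro k hk
    obtain ⟨c, hc⟩ := hscal k hk
    rw [Algebra.mem_bot]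
    exact ⟨c, hc.symm⟩
  have h1 := hK.finrank_eq
  have : Nonempty (Fin m ⊕ Fin m) := ⟨Sum.inl ⟨0, by omega⟩⟩
  rw [hbot, Subalgebra.finrank_bot] at h1
  exact hr.one_lt.ne h1

end Cfsg.Agent.Lib.Helper47.Sp
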