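import Cfsg.Agent.Lib.Helper47.Sp.E1c

set_option autoImplicit false
set_option linter.unusedSectionVars false
set_option linter.unusedVariables false

/-! # Symplectic rows, piece E1q: `Sp_2m(F)` is not inside the similarity group of a quadratic form -/

namespace Cfsg.Agent.Lib.Helper47.Sp

open Cfsg Cfsg.Geo Matrix Cfsg.Agent.Lib.Helper13.Asch Cfsg.Agent.Lib.Helper90.Sp
  Cfsg.Agent.Lib.Helper13
open scoped Kronecker MatrixGroups

variable {F : Type*} [Field F]

theorem tv_not_quadSim {m : ℕ} (Q : (Fin m ⊕ Fin m → F) → F)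
    (hQ : IsNondegenerateQuadraticForm Q)
    (hpol : ∀ u v, QuadraticMap.polar Q u v = sympForm m F u v)
    (v y z : Fin m ⊕ Fin m → F) (hyv : sympForm m F y v = 0) (hzv : sympForm m F z v = 0)
    (hyz : sympForm m F y z ≠ 0) (hv : v ≠ 0) (hQv : Q v + 1 ≠ 0) :
    ¬ spGL m F ≤ quadSimilarityGroup Q := by
  intro hle
  have hS := Cfsg.Agent.Lib.Helper95.Sp.sympForm_isSymplectic (F := F) m
  obtain ⟨g, hg, hgx⟩ := spGL_tv_exists m v (1 : F)
  obtain ⟨l, hl⟩ := hle hg
  have hQadd : ∀ u w, Q (u + w) = Q u + Q w + sympForm m F u w := by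
    intro u w
    have := hpol u w
    unfold QuadraticMap.polar at this
    linear_combination this
  have hQg : ∀ x, Q ((g : Matrix (Fin m ⊕ Fin m) (Fin m ⊕ Fin m) F) *ᵥ x) =
      Q x + (sympForm m F x v) ^ 2 * (Q v + 1) := by
    intro x
    rw [hgx, one_mul, hQadd, hQ.smul, sympForm_smul_right]
    ring
  obtain ⟨x, hx, hQx⟩ : ∃ x, sympForm m F x v = 0 ∧ Q x ≠ 0 := by
    by_contra hcon
    push Not at hcon
    have h1 := hcon y hyv
    have h2 := hcon z hzv
    have h3 := hcon (y + z) (by rw [sympForm_add_left, hyv, hzv, add_zero])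
    rw [hQadd, h1, h2, zero_add, zero_add] at h3
    exact hyz h3
  have hl1 : (l : F) = 1 := by
    have h1 := hl x
    rw [hQg, hx] at h1
    have h2 : (l : F) * Q x = 1 * Q x := by rw [← h1]; ring
    exact mul_right_cancel₀ hQx h2
  obtain ⟨x', hx'⟩ := (hS.nondegenerate v hv).1
  have h1 := hl x'
  rw [hQg, hl1, one_mul] at h1
  have h2 : (sympForm m F x' v) ^ 2 * (Q v + 1) = 0 := by linear_combination h1
  exact (mul_ne_zero (pow_ne_zero 2 hx') hQv) h2

/-- E1q -/
theorem sp_not_le_quad {m : ℕ} (hm : 2 ≤ m) (Q : (Fin m ⊕ Fin m → F) → F)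
    (hQ : IsNondegenerateQuadraticForm Q)
    (hpol : ∀ u v, QuadraticMap.polar Q u v = sympForm m F u v) :
    ¬ spGL m F ≤ quadSimilarityGroup Q := by
  let i0 : Fin m := ⟨0, by omega⟩
  let i1 : Fin m := ⟨1, by omega⟩
  have h01 : i0 ≠ i1 := by simp [i0, i1, Fin.ext_iff]
  set e0 : Fin m ⊕ Fin m → F := Pi.single (Sum.inl i0) 1 with he0
  set e1 : Fin m ⊕ Fin m → F := Pi.single (Sum.inl i1) 1 with he1
  set f0 : Fin m ⊕ Fin m → F := Pi.single (Sum.inr i0) 1 with hf0
  set f1 : Fin m ⊕ Fin m → F := Pi.single (Sum.inr i1) 1 with hf1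
  have a1 : sympForm m F e1 e0 = 0 := by rw [he0, sympForm_single_inl_right, he1]; simp
  have a2 : sympForm m F e0 e1 = 0 := by rw [he1, sympForm_single_inl_right, he0]; simp
  have a3 : sympForm m F f1 e0 = 0 := by
    rw [he0, sympForm_single_inl_right, hf1]; simp [h01]
  have a4 : sympForm m F f0 e1 = 0 := by
    rw [he1, sympForm_single_inl_right, hf0]; simp [h01.symm]
  have a5 : sympForm m F e1 f1 = -1 := by rw [hf1, sympForm_single_inr_right, he1]; simp
  have a6 : sympForm m F e0 f0 = -1 := by rw [hf0, sympForm_single_inr_right, he0]; simp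
  have a7 : sympForm m F f0 e0 = 1 := by rw [he0, sympForm_single_inl_right, hf0]; simp
  have a8 : sympForm m F f1 e1 = 1 := by rw [he1, sympForm_single_inl_right, hf1]; simp
  have a9 : sympForm m F e0 f1 = 0 := by
    rw [hf1, sympForm_single_inr_right, he0]; simp [h01.symm]
  have hne0 : e0 ≠ 0 := by
    intro h
    have := congrFun h (Sum.inl i0)
    simp [he0] at this
  have hne1 : e1 ≠ 0 := by
    intro h
    have := congrFun h (Sum.inl i1)
    simp [he1] at this
  have hne2 : e0 + e1 ≠ 0 := by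
    intro h
    have := congrFun h (Sum.inl i0)
    simp [he0, he1, h01] at this
  have hm1 : (-1 : F) ≠ 0 := neg_ne_zero.2 one_ne_zero
  by_cases h0 : Q e0 + 1 = 0
  · by_cases h1 : Q e1 + 1 = 0
    · have hQadd : Q (e0 + e1) = Q e0 + Q e1 + sympForm m F e0 e1 := by
        have := hpol e0 e1
        unfold QuadraticMap.polar at this
        linear_combination this
      refine tv_not_quadSim Q hQ hpol (e0 + e1) e0 (f0 - f1) ?_ ?_ ?_ hne2 ?_
      · rw [sympForm_add_right, sympForm_self, a2, add_zero]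
      · rw [sympForm_add_right, sympForm_sub_left, sympForm_sub_left, a7, a3, a4, a8]; ring
      · rw [sympForm_sub_right, a6, a9, sub_zero]; exact hm1
      · rw [hQadd, a2]
        intro h
        apply hm1
        linear_combination h - h0 - h1
    · exact tv_not_quadSim Q hQ hpol e1 e0 f0 a2 a4 (by rw [a6]; exact hm1) hne1 h1
  · exact tv_not_quadSim Q hQ hpol e0 e1 f1 a1 a3 (by rw [a5]; exact hm1) hne0 h0

end Cfsg.Agent.Lib.Helper47.Sp
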